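import Cfsg.Agent.Lib.Helper49.HUP.Defs
import Cfsg.Agent.S0688

/-!
# HUP project (S3361), package [BRIDGE]
-/

set_option autoImplicit false

universe u v

namespace Cfsg.Agent.Lib.Helper34.HUP

open Cfsg.Agent.Lib.Helper49.HUP

theorem pkgBridge : PkgBridge.{u, v} := by
  intro q _ V _ _ _ _ G _ _ ρ hreg hsol hno
  obtain ⟨hinj, htr, hfix⟩ := hreg
  have hsolv : Group.IsSolvable ρ.range := by
    have : Group.IsSolvable G := hsol
    exact Group.isSolvable_of_surjective ρ.rangeRestrict_surjective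
  have hcanc : ∀ (g g' : G) (v : V), v ≠ 0 → ρ g v = ρ g' v → g = g' := by
    intro g g' v hv h
    have h2 : ρ (g'⁻¹ * g) v = v := by
      rw [map_mul, LinearEquiv.mul_apply, h, ← LinearEquiv.mul_apply, ← map_mul,
        inv_mul_cancel, map_one]
      rfl
    have h3 := hfix v hv _ h2
    exact (inv_mul_eq_one.mp h3).symm
  have hreg' : ∀ v w : V, v ≠ 0 → w ≠ 0 →
      ∃! h : ρ.range, (h : V ≃ₗ[ZMod q] V) v = w := by
    intro v w hv hw
    obtain ⟨g, hg⟩ := htr v w hv hw
    refine ⟨⟨ρ g, g, rfl⟩, hg, ?_⟩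
    rintro ⟨h, g', rfl⟩ hh
    apply Subtype.ext
    have hh' : ρ g' v = w := hh
    show ρ g' = ρ g
    rw [hcanc g' g v hv (hh'.trans hg.symm)]
  have hI : ∀ A : Subgroup ρ.range, A.Normal → IsCyclic A →
      ∃ W : Submodule (ZMod q) V, W ≠ ⊥ ∧ W ≠ ⊤ ∧
        ∀ a ∈ A, ∀ v ∈ W, ((a : ρ.range) : V ≃ₗ[ZMod q] V) v ∈ W := by
    intro A' hA'n hA'c
    have hAn : (A'.comap ρ.rangeRestrict).Normal := hA'n.comap _
    have hAc : IsCyclic (A'.comap ρ.rangeRestrict) := by
      have hinj' : Function.Injective (ρ.rangeRestrict.subgroupComap A') := by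
        intro a b hab
        have h1 : ρ.rangeRestrict (a : G) = ρ.rangeRestrict (b : G) :=
          congrArg Subtype.val hab
        have h2 : ρ (a : G) = ρ (b : G) := congrArg Subtype.val h1
        exact Subtype.ext (hinj h2)
      exact isCyclic_of_injective (ρ.rangeRestrict.subgroupComap A') hinj'
    have hnot : ¬ Irr ρ (A'.comap ρ.rangeRestrict) := fun h => hno ⟨_, hAn, hAc, h⟩
    unfold Irr at hnot
    push Not at hnot
    obtain ⟨W, hW, hW0, hW1⟩ := hnot
    refine ⟨W, hW0, hW1, ?_⟩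
    rintro ⟨a, g, rfl⟩ ha v hv
    exact hW g ha v hv
  have h := Cfsg.Agent.S0688.result (p := q) (V := V) ρ.range hreg' hI hsolv
  simp only [Set.mem_insert_iff, Set.mem_singleton_iff]
  exact h

end Cfsg.Agent.Lib.Helper34.HUP
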