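import Cfsg.Agent.Lib.Helper49.HUP.Defs
import Cfsg.Agent.S0044
import Cfsg.Agent.S0009
import Cfsg.Agent.Lib.Helper84.PCoreBasic

/-!
# HUP project (S3361), package [HH]
-/

set_option autoImplicit false

universe u v

namespace Cfsg.Agent.Lib.Helper34.HUP

open Cfsg.Agent.Lib.Helper49.HUP

theorem pkgHH : PkgHH.{v} := by
  intro X _ _ hsol hodd
  have : Group.IsSolvable X := hsol
  have hnorm : ∀ p : ℕ, (Cfsg.pCore p X).Normal := fun p =>
    Subgroup.sSup_normal _ (fun _ h => h.1)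
  have hfit : Cfsg.fittingSubgroup X = Cfsg.pCore 2 X := by
    rw [Cfsg.Agent.S0009.result]
    apply le_antisymm
    · apply iSup_le
      intro p
      by_cases hp2 : (p : ℕ) = 2
      · rw [hp2]
      · have hpg : IsPGroup (p : ℕ) (Cfsg.pCore (p : ℕ) X) :=
          Cfsg.Agent.Lib.Helper84.pCore_isPGroup (p : ℕ) X
        have : Fact (p : ℕ).Prime := ⟨p.2⟩
        obtain ⟨n, hn⟩ := (IsPGroup.iff_card).mp hpg
        have hoddp : Odd (p : ℕ) := p.2.odd_of_ne_two hp2
        have hoddc : Odd (Nat.card (Cfsg.pCore (p : ℕ) X)) := by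
          rw [hn]
          exact hoddp.pow
        rw [hodd _ (hnorm p) hoddc]
        exact bot_le
    · exact le_iSup (fun p : Nat.Primes => Cfsg.pCore (p : ℕ) X) ⟨2, Nat.prime_two⟩
  refine ⟨Cfsg.pCore 2 X, hnorm 2, Cfsg.Agent.Lib.Helper84.pCore_isPGroup 2 X, ?_⟩
  have h := Cfsg.Agent.S0044.result (G := X)
  rw [hfit] at h
  exact h

end Cfsg.Agent.Lib.Helper34.HUP
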