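import Cfsg.Agent.Lib.Helper49.HUP.Defs

/-!
# HUP project (S3361), package [LINFACTS]
-/

set_option autoImplicit false

universe u v

namespace Cfsg.Agent.Lib.Helper34.HUP

open Cfsg.Agent.Lib.Helper49.HUP

theorem linEquiv_one_apply {R : Type*} {M : Type*} [Semiring R] [AddCommMonoid M] [Module R M]
    (x : M) : (1 : M ≃ₗ[R] M) x = x := rfl

theorem pkgLinFacts : PkgLinFacts.{u, v} := by
  intro q _ V _ _ _ _ G _ _ ρ hreg
  obtain ⟨hinj, htr, hfix⟩ := hreg
  obtain ⟨v₀, hv₀⟩ := exists_ne (0 : V)
  have hne : ∀ g : G, ρ g v₀ ≠ 0 := by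
    intro g h
    exact hv₀ ((ρ g).map_eq_zero_iff.mp h)
  have hbij : Function.Bijective (fun g : G => (⟨ρ g v₀, hne g⟩ : {v : V // v ≠ 0})) := by
    constructor
    · intro g h hgh
      have h1 : ρ g v₀ = ρ h v₀ := congrArg Subtype.val hgh
      have h2 : ρ (h⁻¹ * g) v₀ = v₀ := by
        rw [map_mul, LinearEquiv.mul_apply, h1, ← LinearEquiv.mul_apply, ← map_mul,
          inv_mul_cancel, map_one, linEquiv_one_apply]
      have h3 := hfix v₀ hv₀ _ h2
      exact (inv_mul_eq_one.mp h3).symm
    · rintro ⟨w, hw⟩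
      obtain ⟨g, hg⟩ := htr v₀ w hv₀ hw
      exact ⟨g, Subtype.ext hg⟩
  have hcard : Nat.card G = Nat.card {v : V // v ≠ 0} :=
    Nat.card_congr (Equiv.ofBijective _ hbij)
  have hcardV : Nat.card {v : V // v ≠ 0} + 1 = Nat.card V := by
    classical
    have := Fintype.ofFinite V
    rw [Nat.card_eq_fintype_card, Nat.card_eq_fintype_card]
    have h1 := Fintype.card_subtype_compl (fun v : V => v = 0)
    have h2 : Fintype.card {v : V // v = 0} = 1 := Fintype.card_subtype_eq 0
    have h3 : 0 < Fintype.card V := Fintype.card_pos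
    have h4 : Fintype.card {v : V // v ≠ 0} = Fintype.card {v : V // ¬ v = 0} :=
      Fintype.card_congr (Equiv.refl _)
    omega
  have hinvol : ∀ s : G, orderOf s = 2 → ∀ v : V, ρ s v = -v := by
    intro s hs v
    have hss : s * s = 1 := by
      have := pow_orderOf_eq_one s
      rw [hs, pow_two] at this
      exact this
    have hs1 : s ≠ 1 := by
      intro h
      rw [h, orderOf_one] at hs
      omega
    have hfixed : ρ s (v + ρ s v) = v + ρ s v := by
      rw [map_add, ← LinearEquiv.mul_apply, ← map_mul, hss, map_one, linEquiv_one_apply,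
        add_comm]
    by_contra hcon
    have hnz : v + ρ s v ≠ 0 := by
      intro h
      exact hcon (eq_neg_of_add_eq_zero_right h)
    exact hs1 (hfix _ hnz s hfixed)
  refine ⟨by omega, ?_, ?_⟩
  · intro s t hs ht
    apply hinj
    ext v
    rw [hinvol s hs v, hinvol t ht v]
  · intro hq2
    have h2ne : (2 : ZMod q) ≠ 0 := by
      intro h
      have h' : ((2 : ℕ) : ZMod q) = 0 := by exact_mod_cast h
      rw [ZMod.natCast_eq_zero_iff] at h'
      have hq : q.Prime := Fact.out
      have := (Nat.prime_dvd_prime_iff_eq hq Nat.prime_two).mp h'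
      exact hq2 this
    have hneg : -v₀ ≠ v₀ := by
      intro h
      have h2 : (2 : ZMod q) • v₀ = 0 := by
        rw [two_smul]
        nth_rewrite 1 [← h]
        exact neg_add_cancel v₀
      rcases smul_eq_zero.mp h2 with h3 | h3
      · exact h2ne h3
      · exact hv₀ h3
    have hnegne : -v₀ ≠ 0 := neg_ne_zero.mpr hv₀
    obtain ⟨g, hg⟩ := htr v₀ (-v₀) hv₀ hnegne
    have hgg : g * g = 1 := by
      apply hfix v₀ hv₀
      rw [map_mul, LinearEquiv.mul_apply, hg, map_neg, hg, neg_neg]
    have hg1 : g ≠ 1 := by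
      intro h
      rw [h, map_one, linEquiv_one_apply] at hg
      exact hneg hg.symm
    have hord : orderOf g = 2 := by
      apply orderOf_eq_prime
      · rw [pow_two]; exact hgg
      · exact hg1
    rw [← hord]
    exact orderOf_dvd_natCard g

end Cfsg.Agent.Lib.Helper34.HUP
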